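import Mathlib
import Cfsg.Agent.Lib.Helper45.Zass.FinCDefs
import Cfsg.Agent.S3378
import Cfsg.Agent.S0016

/-!
# ZASS (S0690), package [FIN-C2]

A finite group with at most one involution which is a central extension of `A₅` by a group of
order 2 is `SL(2,5)` (via S3378: non-solvable of order 120 with quaternion Sylow 2-subgroups).
-/

set_option autoImplicit false

namespace Cfsg.Agent.Lib.Helper45.Zass

open Cfsg.Agent.Lib.Helper51.Zass

universe u

set_option maxRecDepth 100000 in
/-- `A₅` has no element of order 4. -/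
theorem finc_a5_no4 :
    ∀ σ : Equiv.Perm (Fin 5), Equiv.Perm.sign σ = 1 → σ ^ 4 = 1 → σ ^ 2 = 1 := by
  decide +kernel

theorem finc_card_a5 : Nat.card (alternatingGroup (Fin 5)) = 60 := by
  rw [Nat.card_eq_fintype_card]
  have h := two_mul_card_alternatingGroup (α := Fin 5)
  rw [Fintype.card_perm, Fintype.card_fin] at h
  have h5 : Nat.factorial 5 = 120 := by decide
  omega

theorem finc_a5_not_solvable : ¬ Group.IsSolvable (alternatingGroup (Fin 5)) := by
  intro h
  apply Equiv.Perm.not_isSolvable_fin_5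
  exact Group.isSolvable_of_ker_le_range (alternatingGroup (Fin 5)).subtype
    (Equiv.Perm.sign : Equiv.Perm (Fin 5) →* ℤˣ) (by
      intro x hx
      rw [MonoidHom.mem_ker] at hx
      exact ⟨⟨x, Equiv.Perm.mem_alternatingGroup.2 hx⟩, rfl⟩)

/-- A subgroup of order 2 is `{1, a}` with `a` an involution. -/
theorem finc_card_two {Q : Type u} [Group Q] (A : Subgroup Q) (hA : Nat.card A = 2) :
    ∃ a : Q, orderOf a = 2 ∧ ∀ x : Q, x ∈ A ↔ (x = 1 ∨ x = a) := by
  obtain ⟨a, ha, hau⟩ := (Nat.card_eq_two_iff' (1 : A)).1 hA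
  have ha2 : a * a = 1 := by
    by_contra h
    have h1 := hau (a * a) h
    have h2 : a = 1 := by
      calc a = a⁻¹ * (a * a) := by group
        _ = a⁻¹ * a := by rw [h1]
        _ = 1 := inv_mul_cancel a
    exact ha h2
  have hord : orderOf a = 2 := by
    have : Fact (Nat.Prime 2) := ⟨Nat.prime_two⟩
    exact orderOf_eq_prime (by rw [pow_two]; exact ha2) ha
  refine ⟨(a : Q), ?_, ?_⟩
  · rw [Subgroup.orderOf_coe]
    exact hord
  · intro x
    constructor
    · intro hx
      by_cases h1 : (⟨x, hx⟩ : A) = 1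
      · left
        exact congrArg Subtype.val h1
      · right
        exact congrArg Subtype.val (hau ⟨x, hx⟩ h1)
    · rintro (h | h)
      · rw [h]
        exact A.one_mem
      · rw [h]
        exact a.2

/-- The core of [FIN-C2]. -/
theorem finc_core (K : Type u) [Group K] [Finite K]
    (hUI : ∀ s t : K, orderOf s = 2 → orderOf t = 2 → s = t)
    (f : K →* alternatingGroup (Fin 5)) (hf : Function.Surjective f)
    (hker : Nat.card f.ker = 2) :
    Nonempty (K ≃* Matrix.SpecialLinearGroup (Fin 2) (ZMod 5)) := by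
  have hcard : Nat.card K = 120 := by
    have h1 := Subgroup.card_eq_card_quotient_mul_card_subgroup f.ker
    have h2 : Nat.card (K ⧸ f.ker) = 60 := by
      rw [Nat.card_congr (QuotientGroup.quotientKerEquivOfSurjective f hf).toEquiv, finc_card_a5]
    rw [h1, h2, hker]
  have hns : ¬ Group.IsSolvable K := by
    intro h
    exact finc_a5_not_solvable (Group.isSolvable_of_surjective hf)
  obtain ⟨z, hz2, hzker⟩ := finc_card_two f.ker hker
  have hfact : Fact (Nat.Prime 2) := ⟨Nat.prime_two⟩
  refine Cfsg.Agent.S3378.result.1 K hcard hns ?_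
  intro P
  have hP8 : Nat.card (P : Subgroup K) = 8 := by
    obtain ⟨k, hk⟩ := IsPGroup.iff_card.1 P.isPGroup'
    have hidx : ¬ 2 ∣ (P : Subgroup K).index := P.not_dvd_index
    have hmul : Nat.card (P : Subgroup K) * (P : Subgroup K).index = 120 := by
      rw [Subgroup.card_mul_index, hcard]
    have hk6 : k ≤ 6 := by
      by_contra hcon
      have h7 : 2 ^ 7 ∣ 2 ^ k := Nat.pow_dvd_pow 2 (by omega)
      have h8 : 2 ^ k ∣ 120 := by
        rw [← hk, ← hmul]
        exact Dvd.intro _ rfl
      have h9 := Nat.le_of_dvd (by norm_num) (dvd_trans h7 h8)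
      norm_num at h9
    rw [hk] at hmul ⊢
    interval_cases k <;> omega
  have huniq : ∀ A B : Subgroup ↥(P : Subgroup K), Nat.card A = 2 → Nat.card B = 2 → A = B := by
    intro A B hA hB
    obtain ⟨a, ha2, haA⟩ := finc_card_two A hA
    obtain ⟨b, hb2, hbB⟩ := finc_card_two B hB
    have hab : a = b := by
      apply Subtype.ext
      apply hUI
      · rw [Subgroup.orderOf_coe]
        exact ha2
      · rw [Subgroup.orderOf_coe]
        exact hb2
    ext x
    rw [haA, hbB, hab]
  rcases Cfsg.Agent.S0016.result (G := ↥(P : Subgroup K)) 2 P.isPGroup' huniq with hc | ⟨-, n, ⟨e⟩⟩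
  · exfalso
    obtain ⟨g, hg⟩ := IsCyclic.exists_generator (α := ↥(P : Subgroup K))
    have hog : orderOf g = 8 := by
      rw [orderOf_eq_card_of_forall_mem_zpowers hg, hP8]
    obtain ⟨x, hx⟩ : ∃ x : K, x = (g : K) := ⟨_, rfl⟩
    have hox : orderOf x = 8 := by
      rw [hx, Subgroup.orderOf_coe]
      exact hog
    have hx4 : orderOf (x ^ 4) = 2 := by
      have h1 := orderOf_pow_orderOf_div (x := x) (n := 2) (by rw [hox]; norm_num)
        (by rw [hox]; norm_num)
      rw [hox] at h1
      exact h1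
    have hx4z : x ^ 4 = z := hUI _ _ hx4 hz2
    have hzk : z ∈ f.ker := (hzker z).2 (Or.inr rfl)
    have hf4 : f x ^ 4 = 1 := by
      rw [← map_pow, hx4z]
      exact hzk
    have hf2 : f x ^ 2 = 1 := by
      apply Subtype.ext
      have h1 : ((f x : Equiv.Perm (Fin 5))) ^ 4 = 1 := by
        have := congrArg Subtype.val hf4
        simpa using this
      have h2 := finc_a5_no4 (f x : Equiv.Perm (Fin 5)) (Equiv.Perm.mem_alternatingGroup.1 (f x).2) h1
      simpa using h2
    have hx2k : x ^ 2 ∈ f.ker := by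
      rw [MonoidHom.mem_ker, map_pow]
      exact hf2
    have hx2 : x ^ 2 = 1 := by
      rcases (hzker (x ^ 2)).1 hx2k with h | h
      · exact h
      · rw [← hx4z] at h
        have h3 : x ^ 4 = x ^ 2 * x ^ 2 := by rw [← pow_add]
        rw [h3] at h
        calc x ^ 2 = (x ^ 2)⁻¹ * (x ^ 2 * x ^ 2) := by group
          _ = (x ^ 2)⁻¹ * x ^ 2 := by rw [← h]
          _ = 1 := inv_mul_cancel _
    have h4 := orderOf_dvd_of_pow_eq_one hx2
    rw [hox] at h4
    norm_num at h4
  · have hc1 : Nat.card (P : Subgroup K) = Nat.card (QuaternionGroup (2 ^ n)) :=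
      Nat.card_congr e.toEquiv
    have hne : NeZero (2 ^ n) := ⟨by positivity⟩
    rw [hP8, Nat.card_eq_fintype_card, QuaternionGroup.card] at hc1
    have h2n : 2 ^ n = 2 := by omega
    have key : ∀ m : ℕ, m = 2 → (↥(P : Subgroup K) ≃* QuaternionGroup m) →
        Nonempty (↥(P : Subgroup K) ≃* QuaternionGroup 2) := by
      intro m hm e'
      subst hm
      exact ⟨e'⟩
    exact key (2 ^ n) h2n e

/-- **[FIN-C2]** -/
theorem pkgFinC2 : PkgFinC2.{u} := by
  intro G _ _ hUI H hplane hH
  subst hH
  obtain ⟨f, hf, hker⟩ := hplane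
  have hUI' : ∀ s t : (⊤ : Subgroup G), orderOf s = 2 → orderOf t = 2 → s = t := by
    intro s t hs ht
    apply Subtype.ext
    apply hUI
    · rw [Subgroup.orderOf_coe]
      exact hs
    · rw [Subgroup.orderOf_coe]
      exact ht
  obtain ⟨e⟩ := finc_core (⊤ : Subgroup G) hUI' f hf hker
  exact ⟨(Subgroup.topEquiv (G := G)).symm.trans e⟩

end Cfsg.Agent.Lib.Helper45.Zass
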