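import Mathlib
import Cfsg.Agent.Lib.Helper45.Zass.FinC2
import Cfsg.Agent.Lib.Helper63.Zass.FpfTools

/-!
# ZASS (S0690), package [FIN-C], steps (5)-(6)

If `G` is perfect and f.p.f., `N ⊴ G` contains an element of order 4, `G = N K₁` with `K₁`
centralizing `N` and `N ∩ K₁` without elements of order 4, then `N = ⊤`:
`K₁` has no element of order 4, so its Sylow subgroups are cyclic, `K₁` is solvable, and
`G / N` is a solvable quotient of the perfect group `G`.
-/

set_option autoImplicit false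

namespace Cfsg.Agent.Lib.Helper45.Zass

open Cfsg.Agent.Lib.Helper51.Zass Cfsg.Agent.Lib.Helper63.Zass

universe u

/-- A plane (in a group with at most one involution) contains an element of order 4. -/
theorem finc_exists_order_four {G : Type u} [Group G]
    (hUI : ∀ s t : G, orderOf s = 2 → orderOf t = 2 → s = t) (N : Subgroup G)
    (hN : IsPlane N) : ∃ i ∈ N, orderOf i = 4 := by
  obtain ⟨f, hf, hker⟩ := hN
  obtain ⟨z, hz2, hzker⟩ := finc_card_two f.ker hker
  obtain ⟨σ, hσ1, hσ2⟩ : ∃ σ : alternatingGroup (Fin 5), σ ≠ 1 ∧ σ ^ 2 = 1 := by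
    refine ⟨⟨Equiv.swap 0 1 * Equiv.swap 2 3, Equiv.Perm.mem_alternatingGroup.2 (by decide)⟩,
      ?_, ?_⟩
    · intro h
      have h1 := congrArg Subtype.val h
      revert h1
      decide
    · apply Subtype.ext
      show (Equiv.swap (0 : Fin 5) 1 * Equiv.swap 2 3) ^ 2 = 1
      decide
  obtain ⟨i, hi⟩ := hf σ
  have hi1 : i ≠ 1 := by
    intro h
    rw [h, map_one] at hi
    exact hσ1 hi.symm
  have hi2k : i ^ 2 ∈ f.ker := by
    rw [MonoidHom.mem_ker, map_pow, hi, hσ2]
  have hfact : Fact (Nat.Prime 2) := ⟨Nat.prime_two⟩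
  have hi2 : i ^ 2 ≠ 1 := by
    intro h
    have ho : orderOf i = 2 := orderOf_eq_prime h hi1
    have hzi : z = i := by
      apply Subtype.ext
      apply hUI
      · rw [Subgroup.orderOf_coe]
        exact hz2
      · rw [Subgroup.orderOf_coe]
        exact ho
    have hzk : z ∈ f.ker := (hzker z).2 (Or.inr rfl)
    rw [hzi, MonoidHom.mem_ker, hi] at hzk
    exact hσ1 hzk
  have hi4 : i ^ 4 = 1 := by
    rcases (hzker (i ^ 2)).1 hi2k with h | h
    · exact absurd h hi2
    · have h3 : i ^ 4 = (i ^ 2) ^ 2 := by rw [← pow_mul]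
      rw [h3, h, ← hz2]
      exact pow_orderOf_eq_one z
  have ho4 : orderOf i = 4 := by
    have h5 := orderOf_eq_prime_pow (x := i) (p := 2) (n := 1) (by rw [pow_one]; exact hi2)
      (by norm_num; exact hi4)
    norm_num at h5
    exact h5
  refine ⟨(i : G), i.2, ?_⟩
  rw [Subgroup.orderOf_coe]
  exact ho4

/-- Steps (5)-(6) of [FIN-C]. -/
theorem finc_step56 (G : Type u) [Group G] [Finite G] (hfpf : IsFpfLin G)
    (hUI : ∀ s t : G, orderOf s = 2 → orderOf t = 2 → s = t) (hperf : commutator G = ⊤)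
    (N K1 : Subgroup G) [hNn : N.Normal] (hNK : N ⊔ K1 = ⊤)
    (hcent : ∀ k ∈ K1, ∀ n ∈ N, k * n = n * k) (i : G) (hiN : i ∈ N) (hi4 : orderOf i = 4)
    (hint : ∀ x : G, x ∈ N → x ∈ K1 → orderOf x ≠ 4) : N = ⊤ := by
  have hi2 : orderOf (i ^ 2) = 2 := by
    have h1 := orderOf_pow_orderOf_div (x := i) (n := 2) (by rw [hi4]; norm_num)
      (by rw [hi4]; norm_num)
    rw [hi4] at h1
    exact h1
  -- step (5): `K1` has no element of order 4
  have h5 : ∀ u : G, u ∈ K1 → orderOf u ≠ 4 := by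
    intro u hu hu4
    have hu2 : orderOf (u ^ 2) = 2 := by
      have h1 := orderOf_pow_orderOf_div (x := u) (n := 2) (by rw [hu4]; norm_num)
        (by rw [hu4]; norm_num)
      rw [hu4] at h1
      exact h1
    have hsq : u ^ 2 = i ^ 2 := hUI _ _ hu2 hi2
    have hc : Commute u i⁻¹ := (show Commute u i from hcent u hu i hiN).inv_right
    have hw2 : (u * i⁻¹) ^ 2 = 1 := by
      rw [hc.mul_pow, hsq, inv_pow, mul_inv_cancel]
    by_cases hw1 : u * i⁻¹ = 1
    · have hui : u = i := by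
        calc u = (u * i⁻¹) * i := by group
          _ = i := by rw [hw1, one_mul]
      exact hint u (hui ▸ hiN) hu hu4
    · have hfact : Fact (Nat.Prime 2) := ⟨Nat.prime_two⟩
      have how : orderOf (u * i⁻¹) = 2 := orderOf_eq_prime hw2 hw1
      have hw : u * i⁻¹ = i ^ 2 := hUI _ _ how hi2
      have hui : u = i ^ 3 := by
        calc u = (u * i⁻¹) * i := by group
          _ = i ^ 3 := by rw [hw, ← pow_succ]
      exact hint u (hui ▸ N.pow_mem hiN 3) hu hu4
  -- `K1` is a Z-group, hence solvable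
  have hZ : IsZGroup K1 := by
    refine ⟨fun q hq Q => ?_⟩
    have hfq : Fact q.Prime := ⟨hq⟩
    rcases fpf_pgroup_shape (isFpfLin_subgroup hfpf K1) q (Q : Subgroup K1) Q.isPGroup' with
      h | ⟨-, n, ⟨e⟩⟩
    · exact h
    · exfalso
      have hne : NeZero (2 ^ n) := ⟨by positivity⟩
      obtain ⟨y, hy⟩ : ∃ y : ↥(Q : Subgroup K1), y = e.symm (QuaternionGroup.xa 0) := ⟨_, rfl⟩
      have hoy : orderOf y = 4 := by
        rw [hy, MulEquiv.orderOf_eq, QuaternionGroup.orderOf_xa]
      apply h5 ((y : K1) : G) (y : K1).2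
      rw [Subgroup.orderOf_coe, Subgroup.orderOf_coe]
      exact hoy
  have hsolvK : Group.IsSolvable K1 := inferInstance
  -- `G ⧸ N` is a quotient of `K1`
  have hsurj : Function.Surjective ((QuotientGroup.mk' N).comp K1.subtype) := by
    intro x
    obtain ⟨g, rfl⟩ := QuotientGroup.mk'_surjective N x
    have hg : g ∈ ((N ⊔ K1 : Subgroup G) : Set G) := by
      rw [hNK]
      exact Subgroup.mem_top g
    rw [Subgroup.normal_mul] at hg
    obtain ⟨n, hn, k, hk, rfl⟩ := Set.mem_mul.1 hg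
    refine ⟨⟨k, hk⟩, ?_⟩
    show (QuotientGroup.mk' N) k = (QuotientGroup.mk' N) (n * k)
    have hn1 : (QuotientGroup.mk' N) n = 1 := (QuotientGroup.eq_one_iff n).2 hn
    rw [map_mul, hn1, one_mul]
  have hsolvQ : Group.IsSolvable (G ⧸ N) := Group.isSolvable_of_surjective hsurj
  rw [eq_top_iff]
  intro g _
  have h1 := perfect_hom_solvable hperf (QuotientGroup.mk' N) g
  exact (QuotientGroup.eq_one_iff g).1 h1

end Cfsg.Agent.Lib.Helper45.Zass
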