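import Mathlib
import Cfsg.Agent.Lib.Helper45.Zass.FinC56
import Cfsg.Agent.Lib.Helper62.Zass.UI

/-!
# ZASS (S0690), package [FIN-C1]

In a perfect f.p.f. group `G` in which `N = N3 G` is a plane (`f : N ↠ A₅`, `ker f = {1, z}`),
`N3 G = ⊤`.

Route (no lines, no Schur-Zassenhaus): every involution of `A₅` has exactly one fixed point, and
two involutions of `A₅` commute iff they have the same fixed point.  So `G` acts on `Fin 5`:
`g • j` is the fixed point of the image of `g l g⁻¹`, `l ∈ N` any lift of an involution fixing `j`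
(well defined as conjugation by `g` preserves `ker f = {1, z}`, hence commutation of images).
The action restricted to `N` is `f`, the kernel `K₁` of the action centralizes `N` and meets it
in `ker f`, and `G = N K₁` as `G` is perfect (so acts by even permutations).
Then `finc_step56` finishes.
-/

set_option autoImplicit false

namespace Cfsg.Agent.Lib.Helper45.Zass

open Cfsg.Agent.Lib.Helper51.Zass Cfsg.Agent.Lib.Helper63.Zass

universe u

/-- the first fixed point of a permutation of `Fin 5` (the fixed point, for an involution of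
`A₅`). -/
def fincFp (s : Equiv.Perm (Fin 5)) : Fin 5 :=
  if s 0 = 0 then 0 else if s 1 = 1 then 1 else if s 2 = 2 then 2 else if s 3 = 3 then 3 else 4

set_option maxRecDepth 1000000 in
/-- two involutions of `A₅` commute iff they have the same fixed point. -/
theorem finc_d2 : ∀ s t : Equiv.Perm (Fin 5), Equiv.Perm.sign s = 1 → Equiv.Perm.sign t = 1 →
    s ^ 2 = 1 → t ^ 2 = 1 → s ≠ 1 → t ≠ 1 → (s * t = t * s ↔ fincFp s = fincFp t) := by
  decide +kernel

set_option maxRecDepth 1000000 in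
/-- the fixed point of a conjugate involution. -/
theorem finc_d3 : ∀ σ s : Equiv.Perm (Fin 5), Equiv.Perm.sign σ = 1 → Equiv.Perm.sign s = 1 →
    s ^ 2 = 1 → s ≠ 1 → fincFp (σ * s * σ⁻¹) = σ (fincFp s) := by
  decide +kernel

/-- every point is the fixed point of an involution of `A₅`. -/
theorem finc_d4 : ∀ j : Fin 5, ∃ s : Equiv.Perm (Fin 5),
    Equiv.Perm.sign s = 1 ∧ s ^ 2 = 1 ∧ s ≠ 1 ∧ fincFp s = j := by
  decide +kernel

/-- `N3 G` is normal. -/
theorem finc_n3_normal (G : Type u) [Group G] : (N3 G).Normal := by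
  constructor
  intro n hn g
  have hle : N3 G ≤ (N3 G).comap (MulAut.conj g).toMonoidHom := by
    unfold N3
    rw [Subgroup.closure_le]
    intro x hx
    show MulAut.conj g x ∈ Subgroup.closure {g : G | orderOf g = 3}
    apply Subgroup.subset_closure
    show orderOf (MulAut.conj g x) = 3
    rw [← hx]
    exact orderOf_injective (MulAut.conj g).toMonoidHom (MulAut.conj g).injective x
  have := hle hn
  simpa [MulAut.conj_apply] using this

/-- The core of [FIN-C1], with the plane structure given by a total function `F`. -/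
theorem finc_act_core (G : Type u) [Group G] [Finite G] (hfpf : IsFpfLin G)
    (hUI : ∀ s t : G, orderOf s = 2 → orderOf t = 2 → s = t) (hperf : commutator G = ⊤)
    (F : G → Equiv.Perm (Fin 5)) (z : G) (hz : orderOf z = 2)
    (hmul : ∀ x y : G, x ∈ N3 G → y ∈ N3 G → F (x * y) = F x * F y)
    (hsign : ∀ x : G, x ∈ N3 G → Equiv.Perm.sign (F x) = 1)
    (hker : ∀ x : G, x ∈ N3 G → (F x = 1 ↔ x = 1 ∨ x = z))
    (hsurj : ∀ σ : Equiv.Perm (Fin 5), Equiv.Perm.sign σ = 1 → ∃ x, x ∈ N3 G ∧ F x = σ)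
    (i : G) (hiN : i ∈ N3 G) (hi4 : orderOf i = 4) : N3 G = ⊤ := by
  have hNn : (N3 G).Normal := finc_n3_normal G
  have hzc : ∀ g : G, g * z * g⁻¹ = z := by
    intro g
    apply hUI
    · have h1 : g * z * g⁻¹ = MulAut.conj g z := rfl
      rw [h1, MulEquiv.orderOf_eq]
      exact hz
    · exact hz
  have hz1 : z ≠ 1 := by
    intro h
    rw [h, orderOf_one] at hz
    omega
  have hzz : z * z = 1 := by
    have h := pow_orderOf_eq_one z
    rw [hz, pow_two] at h
    exact h
  have hconj : ∀ g x : G, x ∈ N3 G → g * x * g⁻¹ ∈ N3 G := fun g x hx => hNn.conj_mem x hx g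
  have hm : ∀ x y : G, x ∈ N3 G → y ∈ N3 G → x * y ∈ N3 G := fun x y hx hy => mul_mem hx hy
  have hi : ∀ x : G, x ∈ N3 G → x⁻¹ ∈ N3 G := fun x hx => inv_mem hx
  -- the kernel is invariant under conjugation
  have hC : ∀ g x : G, x ∈ N3 G → (F x = 1 ↔ F (g * x * g⁻¹) = 1) := by
    intro g x hx
    rw [hker x hx, hker _ (hconj g x hx)]
    constructor
    · rintro (h | h)
      · left
        rw [h]
        group
      · right
        rw [h]
        exact hzc g
    · rintro (h | h)
      · left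
        calc x = g⁻¹ * (g * x * g⁻¹) * g := by group
          _ = g⁻¹ * 1 * g := by rw [h]
          _ = 1 := by group
      · right
        have h2 := hzc g⁻¹
        rw [inv_inv] at h2
        calc x = g⁻¹ * (g * x * g⁻¹) * g := by group
          _ = g⁻¹ * z * g := by rw [h]
          _ = z := h2
  have hF1 : F 1 = 1 := (hker 1 (N3 G).one_mem).2 (Or.inl rfl)
  have hFinv : ∀ x : G, x ∈ N3 G → F x⁻¹ = (F x)⁻¹ := by
    intro x hx
    apply eq_inv_of_mul_eq_one_right
    rw [← hmul x x⁻¹ hx (hi x hx), mul_inv_cancel, hF1]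
  -- commutation of images is invariant under conjugation
  have hcomm : ∀ g x y : G, x ∈ N3 G → y ∈ N3 G → F x * F y = F y * F x →
      F (g * x * g⁻¹) * F (g * y * g⁻¹) = F (g * y * g⁻¹) * F (g * x * g⁻¹) := by
    intro g x y hx hy h
    have hc : F (x * y * x⁻¹ * y⁻¹) = 1 := by
      rw [hmul _ _ (hm _ _ (hm _ _ hx hy) (hi x hx)) (hi y hy),
        hmul _ _ (hm _ _ hx hy) (hi x hx), hmul x y hx hy, hFinv x hx, hFinv y hy, h]
      group
    have hc' := (hC g _ (hm _ _ (hm _ _ (hm _ _ hx hy) (hi x hx)) (hi y hy))).1 hc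
    have he : g * (x * y * x⁻¹ * y⁻¹) * g⁻¹ =
        (g * x * g⁻¹) * (g * y * g⁻¹) * (g * x * g⁻¹)⁻¹ * (g * y * g⁻¹)⁻¹ := by group
    have hx' := hconj g x hx
    have hy' := hconj g y hy
    rw [he, hmul _ _ (hm _ _ (hm _ _ hx' hy') (hi _ hx')) (hi _ hy'),
      hmul _ _ (hm _ _ hx' hy') (hi _ hx'), hmul _ _ hx' hy', hFinv _ hx', hFinv _ hy'] at hc'
    calc F (g * x * g⁻¹) * F (g * y * g⁻¹)
        = (F (g * x * g⁻¹) * F (g * y * g⁻¹) * (F (g * x * g⁻¹))⁻¹ * (F (g * y * g⁻¹))⁻¹) *
          (F (g * y * g⁻¹) * F (g * x * g⁻¹)) := by group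
      _ = F (g * y * g⁻¹) * F (g * x * g⁻¹) := by rw [hc', one_mul]
  -- lifts of involutions stay lifts of involutions
  have hinv : ∀ g x : G, x ∈ N3 G → (F x) ^ 2 = 1 → F x ≠ 1 →
      (F (g * x * g⁻¹)) ^ 2 = 1 ∧ F (g * x * g⁻¹) ≠ 1 := by
    intro g x hx h2 h1
    constructor
    · rw [pow_two, ← hmul _ _ (hconj g x hx) (hconj g x hx)]
      have he : g * x * g⁻¹ * (g * x * g⁻¹) = g * (x * x) * g⁻¹ := by group
      rw [he]
      apply (hC g _ (hm _ _ hx hx)).1
      rw [hmul x x hx hx, ← pow_two]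
      exact h2
    · intro h
      exact h1 ((hC g x hx).2 h)
  have hlift : ∀ j : Fin 5, ∃ l : G, l ∈ N3 G ∧ (F l) ^ 2 = 1 ∧ F l ≠ 1 ∧ fincFp (F l) = j := by
    intro j
    obtain ⟨s, hs1, hs2, hs3, hs4⟩ := finc_d4 j
    obtain ⟨l, hl, hFl⟩ := hsurj s hs1
    exact ⟨l, hl, by rw [hFl]; exact hs2, by rw [hFl]; exact hs3, by rw [hFl]; exact hs4⟩
  choose l hlN hl2 hl1 hlj using hlift
  -- well-definedness
  have hWD : ∀ (g x : G), x ∈ N3 G → (F x) ^ 2 = 1 → F x ≠ 1 →
      fincFp (F (g * x * g⁻¹)) = fincFp (F (g * l (fincFp (F x)) * g⁻¹)) := by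
    intro g x hx h2 h1
    obtain ⟨j, hj⟩ : ∃ j, j = fincFp (F x) := ⟨_, rfl⟩
    rw [← hj]
    have h3 : F x * F (l j) = F (l j) * F x :=
      (finc_d2 (F x) (F (l j)) (hsign x hx) (hsign _ (hlN j)) h2 (hl2 j) h1 (hl1 j)).2
        (by rw [hlj j, hj])
    have h4 := hcomm g x (l j) hx (hlN j) h3
    obtain ⟨a2, a1⟩ := hinv g x hx h2 h1
    obtain ⟨b2, b1⟩ := hinv g (l j) (hlN j) (hl2 j) (hl1 j)
    exact (finc_d2 _ _ (hsign _ (hconj g x hx)) (hsign _ (hconj g _ (hlN j))) a2 b2 a1 b1).1 h4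
  -- the action
  obtain ⟨θ, hθ⟩ : ∃ θ : G →* Equiv.Perm (Fin 5),
      ∀ g j, θ g j = fincFp (F (g * l j * g⁻¹)) := by
    letI act : MulAction G (Fin 5) :=
      { smul := fun g j => fincFp (F (g * l j * g⁻¹))
        one_smul := by
          intro j
          show fincFp (F (1 * l j * 1⁻¹)) = j
          rw [one_mul, inv_one, mul_one]
          exact hlj j
        mul_smul := by
          intro g h j
          show fincFp (F (g * h * l j * (g * h)⁻¹)) =
            fincFp (F (g * l (fincFp (F (h * l j * h⁻¹))) * g⁻¹))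
          obtain ⟨c2, c1⟩ := hinv h (l j) (hlN j) (hl2 j) (hl1 j)
          rw [← hWD g (h * l j * h⁻¹) (hconj h _ (hlN j)) c2 c1]
          have he : g * h * l j * (g * h)⁻¹ = g * (h * l j * h⁻¹) * g⁻¹ := by group
          rw [he] }
    exact ⟨MulAction.toPermHom G (Fin 5), fun g j => rfl⟩
  -- on `N` the action is `F`
  have hθN : ∀ n : G, n ∈ N3 G → θ n = F n := by
    intro n hn
    apply Equiv.ext
    intro j
    rw [hθ, hmul _ _ (hm _ _ hn (hlN j)) (hi n hn), hmul _ _ hn (hlN j), hFinv n hn,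
      finc_d3 (F n) (F (l j)) (hsign n hn) (hsign _ (hlN j)) (hl2 j) (hl1 j), hlj j]
  -- `G` acts by even permutations
  have hsθ : ∀ g : G, Equiv.Perm.sign (θ g) = 1 := by
    intro g
    exact perfect_hom_solvable hperf ((Equiv.Perm.sign : Equiv.Perm (Fin 5) →* ℤˣ).comp θ) g
  have hNK : N3 G ⊔ θ.ker = ⊤ := by
    rw [eq_top_iff]
    intro g _
    obtain ⟨n, hn, hFn⟩ := hsurj (θ g) (hsθ g)
    have hk : n⁻¹ * g ∈ θ.ker := by
      rw [MonoidHom.mem_ker, map_mul, map_inv, hθN n hn, hFn, inv_mul_cancel]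
    have hg : g = n * (n⁻¹ * g) := by group
    rw [hg]
    exact Subgroup.mul_mem_sup hn hk
  have hint1 : ∀ x : G, x ∈ N3 G → x ∈ θ.ker → x = 1 ∨ x = z := by
    intro x hx hk
    rw [MonoidHom.mem_ker, hθN x hx] at hk
    exact (hker x hx).1 hk
  have hint : ∀ x : G, x ∈ N3 G → x ∈ θ.ker → orderOf x ≠ 4 := by
    intro x hx hk h4
    rcases hint1 x hx hk with h | h
    · rw [h, orderOf_one] at h4
      omega
    · rw [h, hz] at h4
      omega
  have hcent : ∀ k ∈ θ.ker, ∀ n ∈ N3 G, k * n = n * k := by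
    intro k hk n hn
    have hkk : θ k = 1 := MonoidHom.mem_ker.1 hk
    have hle : N3 G ≤ Subgroup.centralizer {k} := by
      unfold N3
      rw [Subgroup.closure_le]
      intro a ha
      have ha3o : orderOf a = 3 := ha
      have haN : a ∈ N3 G := Subgroup.subset_closure ha
      rw [SetLike.mem_coe, Subgroup.mem_centralizer_iff]
      intro y hy
      rw [Set.mem_singleton_iff] at hy
      rw [hy]
      have hcN : k * a * k⁻¹ * a⁻¹ ∈ N3 G := hm _ _ (hconj k a haN) (hi a haN)
      have hcK : k * a * k⁻¹ * a⁻¹ ∈ θ.ker := by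
        rw [MonoidHom.mem_ker, map_mul, map_mul, map_mul, map_inv, map_inv, hkk]
        group
      rcases hint1 _ hcN hcK with h | h
      · calc k * a = (k * a * k⁻¹ * a⁻¹) * (a * k) := by group
          _ = a * k := by rw [h, one_mul]
      · exfalso
        have h1 : k * a * k⁻¹ = z * a := by
          calc k * a * k⁻¹ = (k * a * k⁻¹ * a⁻¹) * a := by group
            _ = z * a := by rw [h]
        have ha3 : a * a * a = 1 := by
          have h3 := pow_orderOf_eq_one a
          rw [ha3o, pow_succ, pow_two] at h3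
          exact h3
        have h2 : (k * a * k⁻¹) * (k * a * k⁻¹) * (k * a * k⁻¹) = 1 := by
          have h3 : (k * a * k⁻¹) * (k * a * k⁻¹) * (k * a * k⁻¹) = k * (a * a * a) * k⁻¹ := by
            group
          rw [h3, ha3]
          group
        rw [h1] at h2
        have hza : a * z = z * a := by
          have h3 := hzc a
          calc a * z = (a * z * a⁻¹) * a := by group
            _ = z * a := by rw [h3]
        have h3 : z * a * (z * a) * (z * a) = z * z * z * (a * a * a) := by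
          calc z * a * (z * a) * (z * a) = z * (a * z) * (a * z) * a := by group
            _ = z * (z * a) * (z * a) * a := by rw [hza]
            _ = z * z * (a * z) * a * a := by group
            _ = z * z * (z * a) * a * a := by rw [hza]
            _ = z * z * z * (a * a * a) := by group
        rw [h3, ha3, hzz, one_mul, mul_one] at h2
        exact hz1 h2
    have h := hle hn
    rw [Subgroup.mem_centralizer_iff] at h
    exact h k rfl
  exact finc_step56 G hfpf hUI hperf (N3 G) θ.ker hNK hcent i hiN hi4 hint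

/-- [FIN-C1] from [UI]. -/
theorem pkgFinC1_of (hUI : PkgUI.{u}) : PkgFinC1.{u} := by
  classical
  intro G _ _ hfpf hperf hplane
  have hUI' := hUI G hfpf
  obtain ⟨i, hiN, hi4⟩ := finc_exists_order_four hUI' (N3 G) hplane
  obtain ⟨f, hf, hker⟩ := hplane
  obtain ⟨z, hz2, hzker⟩ := finc_card_two f.ker hker
  obtain ⟨F, hF⟩ : ∃ F : G → Equiv.Perm (Fin 5), ∀ (x : G) (h : x ∈ N3 G),
      F x = ((f ⟨x, h⟩ : alternatingGroup (Fin 5)) : Equiv.Perm (Fin 5)) :=
    ⟨fun x => if h : x ∈ N3 G then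
        ((f ⟨x, h⟩ : alternatingGroup (Fin 5)) : Equiv.Perm (Fin 5)) else 1,
      fun x h => dif_pos h⟩
  refine finc_act_core G hfpf hUI' hperf F (z : G) ?_ ?_ ?_ ?_ ?_ i hiN hi4
  · rw [Subgroup.orderOf_coe]
    exact hz2
  · intro x y hx hy
    rw [hF _ (mul_mem hx hy), hF x hx, hF y hy]
    have h1 : (⟨x * y, mul_mem hx hy⟩ : N3 G) = ⟨x, hx⟩ * ⟨y, hy⟩ := rfl
    rw [h1, map_mul]
    rfl
  · intro x hx
    rw [hF x hx]
    exact Equiv.Perm.mem_alternatingGroup.1 (f ⟨x, hx⟩).2
  · intro x hx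
    rw [hF x hx]
    have h1 : ((f ⟨x, hx⟩ : alternatingGroup (Fin 5)) : Equiv.Perm (Fin 5)) = 1 ↔
        (⟨x, hx⟩ : N3 G) ∈ f.ker := by
      rw [MonoidHom.mem_ker]
      constructor
      · intro h
        exact Subtype.ext h
      · intro h
        rw [h]
        rfl
    rw [h1, hzker]
    constructor
    · rintro (h | h)
      · left
        exact congrArg Subtype.val h
      · right
        exact congrArg Subtype.val h
    · rintro (h | h)
      · left
        exact Subtype.ext h
      · right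
        exact Subtype.ext h
  · intro σ hσ
    obtain ⟨x, hx⟩ := hf ⟨σ, Equiv.Perm.mem_alternatingGroup.2 hσ⟩
    refine ⟨(x : G), x.2, ?_⟩
    rw [hF _ x.2]
    have h1 : (⟨(x : G), x.2⟩ : N3 G) = x := rfl
    rw [h1, hx]

/-- [FIN-C1]. -/
theorem pkgFinC1 : PkgFinC1.{u} := pkgFinC1_of Cfsg.Agent.Lib.Helper62.Zass.pkgUI

/-- [FIN-C]. -/
theorem pkgFinC : PkgFinC.{u} :=
  pkgFinC_of Cfsg.Agent.Lib.Helper62.Zass.pkgUI pkgFinC1 pkgFinC2

end Cfsg.Agent.Lib.Helper45.Zass
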